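import Mathlib
import Cfsg.Agent.Lib.Helper49.HUP.Defs
import Cfsg.Agent.S0684

/-!
# HUP project (S3361): package [SEMIM]

A regular group with an irreducible normal cyclic subgroup `A`: the centralizer of `A` is a
normal cyclic subgroup containing all commutators.
-/

set_option autoImplicit false

namespace Cfsg.Agent.Lib.Helper41.HUP

open Cfsg.Agent.Lib.Helper49.HUP

universe u v

/-- conjugation by any element acts on a normal cyclic subgroup as a power map -/
theorem semiM_conj_pow {G : Type v} [Group G] (A : Subgroup G) (hAn : A.Normal) (hAc : IsCyclic A)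
    (x : G) : ∃ k : ℤ, ∀ a ∈ A, x * a * x⁻¹ = a ^ k := by
  obtain ⟨⟨a₀, ha₀⟩, hgen⟩ := hAc.exists_generator
  have h1 : x * a₀ * x⁻¹ ∈ A := hAn.conj_mem a₀ ha₀ x
  obtain ⟨k, hk⟩ := Subgroup.mem_zpowers_iff.mp (hgen ⟨x * a₀ * x⁻¹, h1⟩)
  have hk' : a₀ ^ k = x * a₀ * x⁻¹ := by
    have := congrArg Subtype.val hk
    simpa using this
  refine ⟨k, fun a ha => ?_⟩
  obtain ⟨j, hj⟩ := Subgroup.mem_zpowers_iff.mp (hgen ⟨a, ha⟩)
  have hj' : a₀ ^ j = a := by
    have := congrArg Subtype.val hj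
    simpa using this
  rw [← hj', ← conj_zpow, ← hk', ← zpow_mul, ← zpow_mul, mul_comm]

/-- all commutators centralize a normal cyclic subgroup -/
theorem semiM_comm_mem {G : Type v} [Group G] (A : Subgroup G) (hAn : A.Normal) (hAc : IsCyclic A)
    (x y : G) : x * y * x⁻¹ * y⁻¹ ∈ Subgroup.centralizer (A : Set G) := by
  obtain ⟨k, hk⟩ := semiM_conj_pow A hAn hAc x
  obtain ⟨l, hl⟩ := semiM_conj_pow A hAn hAc y
  have key : ∀ a ∈ A, (x * y) * a * (x * y)⁻¹ = (y * x) * a * (y * x)⁻¹ := by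
    intro a ha
    have e1 : (x * y) * a * (x * y)⁻¹ = x * (y * a * y⁻¹) * x⁻¹ := by group
    have e2 : (y * x) * a * (y * x)⁻¹ = y * (x * a * x⁻¹) * y⁻¹ := by group
    rw [e1, e2, hl a ha, hk a ha, hk _ (A.zpow_mem ha l), hl _ (A.zpow_mem ha k), ← zpow_mul,
      ← zpow_mul, mul_comm]
  rw [Subgroup.mem_centralizer_iff]
  intro a ha
  have ha' : (y * x)⁻¹ * a * (y * x) ∈ A := by
    have := hAn.conj_mem a ha (y * x)⁻¹
    simpa using this
  have h2 := key _ ha'
  have e3 : (y * x) * ((y * x)⁻¹ * a * (y * x)) * (y * x)⁻¹ = a := by group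
  rw [e3] at h2
  -- h2 : x*y * ((y*x)⁻¹ * a * (y*x)) * (x*y)⁻¹ = a
  have e4 : x * y * x⁻¹ * y⁻¹ = (x * y) * (y * x)⁻¹ := by group
  rw [e4]
  calc a * (x * y * (y * x)⁻¹)
      = (x * y * ((y * x)⁻¹ * a * (y * x)) * (x * y)⁻¹) * (x * y * (y * x)⁻¹) := by rw [h2]
    _ = x * y * (y * x)⁻¹ * a := by group

theorem pkgSemiM : PkgSemiM.{u, v} := by
  intro q _ V _ _ _ _ G _ _ ρ hreg A hAn hAc hirr
  classical
  obtain ⟨hinj, htrans, hsemi⟩ := hreg
  have hAcomm : ∀ a b : G, a ∈ A → b ∈ A → a * b = b * a := by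
    intro a b ha hb
    have h := (IsCyclic.commutative (α := A)).is_comm.comm ⟨a, ha⟩ ⟨b, hb⟩
    exact congrArg Subtype.val h
  have hCn : (Subgroup.centralizer (A : Set G)).Normal := by
    have := hAn
    infer_instance
  refine ⟨Subgroup.centralizer (A : Set G), hCn, ?_, fun x y => semiM_comm_mem A hAn hAc x y⟩
  -- the centralizer is commutative
  obtain ⟨v₀, hv₀⟩ := exists_ne (0 : V)
  let φ : G → Module.End (ZMod q) V := fun g => ((ρ g : V ≃ₗ[ZMod q] V) : V →ₗ[ZMod q] V)
  have hφmul : ∀ g h : G, φ (g * h) = φ g * φ h := by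
    intro g h
    apply LinearMap.ext
    intro v
    simp [φ]
  have hφapp : ∀ (g : G) (v : V), φ g v = ρ g v := fun g v => rfl
  let W : Submodule (ZMod q) V := Submodule.span (ZMod q) (Set.range fun a : A => ρ (a : G) v₀)
  have hWinv : ∀ a ∈ A, ∀ v ∈ W, ρ a v ∈ W := by
    intro a ha v hv
    have hmap : W.map (φ a) ≤ W := by
      rw [Submodule.map_span]
      apply Submodule.span_le.mpr
      rintro _ ⟨_, ⟨b, rfl⟩, rfl⟩
      apply Submodule.subset_span
      refine ⟨⟨a, ha⟩ * b, ?_⟩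
      simp [φ]
    exact hmap ⟨v, hv, rfl⟩
  have hWtop : W = ⊤ := by
    rcases hirr W hWinv with h | h
    · exfalso
      have : v₀ ∈ W := Submodule.subset_span ⟨1, by simp⟩
      rw [h] at this
      exact hv₀ ((Submodule.mem_bot _).mp this)
    · exact h
  let B : Submodule (ZMod q) (Module.End (ZMod q) V) :=
    Submodule.span (ZMod q) (Set.range fun a : A => φ (a : G))
  -- elements of B commute with φ a, a ∈ A, and with φ c, c ∈ C
  have hBA : ∀ b ∈ B, ∀ a ∈ A, b * φ a = φ a * b := by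
    intro b hb a ha
    induction hb using Submodule.span_induction with
    | mem x hx =>
      obtain ⟨a', rfl⟩ := hx
      show φ (a' : G) * φ a = φ a * φ (a' : G)
      rw [← hφmul, ← hφmul, hAcomm _ _ a'.2 ha]
    | zero => simp
    | add x y _ _ hx hy => rw [add_mul, mul_add, hx, hy]
    | smul t x _ hx => rw [smul_mul_assoc, mul_smul_comm, hx]
  have hBC : ∀ b ∈ B, ∀ c ∈ Subgroup.centralizer (A : Set G), b * φ c = φ c * b := by
    intro b hb c hc
    induction hb using Submodule.span_induction with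
    | mem x hx =>
      obtain ⟨a', rfl⟩ := hx
      show φ (a' : G) * φ c = φ c * φ (a' : G)
      rw [← hφmul, ← hφmul, (Subgroup.mem_centralizer_iff.mp hc) _ a'.2]
    | zero => simp
    | add x y _ _ hx hy => rw [add_mul, mul_add, hx, hy]
    | smul t x _ hx => rw [smul_mul_assoc, mul_smul_comm, hx]
  -- every vector is b v₀ for some b ∈ B
  have hex : ∀ w : V, ∃ b ∈ B, b v₀ = w := by
    intro w
    have hw : w ∈ W := by rw [hWtop]; exact Submodule.mem_top
    induction hw using Submodule.span_induction with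
    | mem x hx =>
      obtain ⟨a', rfl⟩ := hx
      exact ⟨φ (a' : G), Submodule.subset_span ⟨a', rfl⟩, rfl⟩
    | zero => exact ⟨0, B.zero_mem, by simp⟩
    | add x y _ _ hx hy =>
      obtain ⟨b1, hb1, e1⟩ := hx
      obtain ⟨b2, hb2, e2⟩ := hy
      exact ⟨b1 + b2, B.add_mem hb1 hb2, by simp [e1, e2]⟩
    | smul t x _ hx =>
      obtain ⟨b1, hb1, e1⟩ := hx
      exact ⟨t • b1, B.smul_mem t hb1, by simp [e1]⟩
  -- maps commuting with φ A and agreeing at v₀ are equal
  have huniq : ∀ f g : Module.End (ZMod q) V, (∀ a ∈ A, f * φ a = φ a * f) →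
      (∀ a ∈ A, g * φ a = φ a * g) → f v₀ = g v₀ → f = g := by
    intro f g hf hg h0
    have hle : W ≤ LinearMap.eqLocus f g := by
      apply Submodule.span_le.mpr
      rintro _ ⟨a, rfl⟩
      show f (ρ (a : G) v₀) = g (ρ (a : G) v₀)
      have e1 : f (ρ (a : G) v₀) = (f * φ a) v₀ := rfl
      have e2 : g (ρ (a : G) v₀) = (g * φ a) v₀ := rfl
      rw [e1, e2, hf _ a.2, hg _ a.2]
      show φ a (f v₀) = φ a (g v₀)
      rw [h0]
    apply LinearMap.ext
    intro v
    have hv : v ∈ W := by rw [hWtop]; exact Submodule.mem_top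
    exact hle hv
  have hCB : ∀ c ∈ Subgroup.centralizer (A : Set G), φ c ∈ B := by
    intro c hc
    obtain ⟨b, hb, e⟩ := hex (φ c v₀)
    have : b = φ c := by
      apply huniq b (φ c) (hBA b hb) _ e
      intro a ha
      rw [← hφmul, ← hφmul, (Subgroup.mem_centralizer_iff.mp hc) _ ha]
    rw [← this]
    exact hb
  have hCcomm : ∀ c d : G, c ∈ Subgroup.centralizer (A : Set G) →
      d ∈ Subgroup.centralizer (A : Set G) → c * d = d * c := by
    intro c d hc hd
    apply hinj
    have h1 := hBC (φ c) (hCB c hc) d hd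
    rw [← hφmul, ← hφmul] at h1
    apply LinearEquiv.toLinearMap_injective
    exact h1
  -- now apply the cyclicity criterion
  let H : Subgroup (V ≃ₗ[ZMod q] V) := ρ.range
  let C' : Subgroup H := (Subgroup.centralizer (A : Set G)).map ρ.rangeRestrict
  have hrinj : Function.Injective ρ.rangeRestrict := by
    intro x y hxy
    apply hinj
    exact congrArg Subtype.val hxy
  have hC'c : IsMulCommutative C' := by
    refine ⟨⟨?_⟩⟩
    rintro ⟨_, ⟨c, hc, rfl⟩⟩ ⟨_, ⟨d, hd, rfl⟩⟩
    apply Subtype.ext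
    show ρ.rangeRestrict c * ρ.rangeRestrict d = ρ.rangeRestrict d * ρ.rangeRestrict c
    rw [← map_mul, ← map_mul, hCcomm c d hc hd]
  have hC'semi : ∀ a : C', ∀ v : V, v ≠ 0 → ((a : H) : V ≃ₗ[ZMod q] V) v = v → a = 1 := by
    rintro ⟨_, ⟨c, hc, rfl⟩⟩ v hv hfix
    have h1 : ρ c v = v := hfix
    have h2 := hsemi v hv c h1
    apply Subtype.ext
    show ρ.rangeRestrict c = 1
    rw [h2, map_one]
  have hcyc : IsCyclic C' := Cfsg.Agent.S0684.cyclic_of_semireg H C' hC'c hC'semi
  exact isCyclic_of_surjective _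
    (Subgroup.equivMapOfInjective (Subgroup.centralizer (A : Set G)) ρ.rangeRestrict
      hrinj).symm.surjective

end Cfsg.Agent.Lib.Helper41.HUP
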